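import Mathlib
import Cfsg.Agent.Lib.E6Cub.Form
import Cfsg.Agent.Lib.Chev.Stein
/-! The root elements on the 27-dimensional module satisfy the Steinberg relations -/
set_option autoImplicit false
set_option maxRecDepth 100000
namespace H30.E6
open Cfsg.Lie Finset Matrix H54

section Alg
variable {K A : Type*} [Field K] [Ring A] [Algebra K A]

theorem one_add_mul {E : A} (h : E * E = 0) (a b : K) :
    (1 + a • E) * (1 + b • E) = 1 + (a + b) • E := by
  simp only [mul_add, add_mul, one_mul, mul_one, smul_mul_assoc, mul_smul_comm, h, smul_zero]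
  module

theorem comm0 {E E' : A} (h : E' * E = E * E') (t u : K) :
    (1 + u • E') * (1 + t • E) = (1 + t • E) * (1 + u • E') := by
  simp only [mul_add, add_mul, one_mul, mul_one, smul_mul_assoc, mul_smul_comm, h]
  module

theorem comm1 {E E' C : A} {N : K} (h : E' * E = E * E' - N • C) (h1 : E * C = 0) (h2 : E' * C = 0)
    (t u : K) : (1 + u • E') * (1 + t • E) =
      (1 + t • E) * (1 + u • E') * (1 + (N * (-t) ^ 1 * u ^ 1) • C) := by
  simp only [mul_add, add_mul, one_mul, mul_one, smul_mul_assoc, mul_smul_comm, h, mul_assoc, h1, h2,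
    smul_zero, mul_zero, pow_one]
  module

theorem n_eq {E E' : A} (h : E * E = 0) (h1 : E * (E' * E) = E) {c : K} (hc : c ≠ 0) :
    (1 + c • E) * (1 + (-c⁻¹) • E') * (1 + c • E) = 1 - E * E' - E' * E + c • E - c⁻¹ • E' := by
  simp only [mul_add, add_mul, one_mul, mul_one, smul_mul_assoc, mul_smul_comm, h, mul_assoc, h1,
    smul_zero, smul_add]
  match_scalars <;> field_simp <;> ring

theorem h_eq {E E' : A} (h : E * E = 0) (h' : E' * E' = 0) (h1 : E * (E' * E) = E)
    (h2 : E' * (E * E') = E') {c : K} (hc : c ≠ 0) :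
    (1 + c • E) * (1 + (-c⁻¹) • E') * (1 + c • E) *
      ((1 + (-1 : K) • E) * (1 + (-(-1 : K)⁻¹) • E') * (1 + (-1 : K) • E)) =
      1 - E * E' - E' * E + c • (E * E') + c⁻¹ • (E' * E) := by
  have a1 : ∀ x, E * (E * x) = 0 := fun x => by rw [← mul_assoc, h, zero_mul]
  have a2 : ∀ x, E' * (E' * x) = 0 := fun x => by rw [← mul_assoc, h', zero_mul]
  have a3 : ∀ x, E * (E' * (E * x)) = E * x := fun x => by
    rw [← mul_assoc E', ← mul_assoc E, h1]
  have a4 : ∀ x, E' * (E * (E' * x)) = E' * x := fun x => by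
    rw [← mul_assoc E, ← mul_assoc E', h2]
  rw [n_eq h h1 hc, n_eq h h1 (neg_ne_zero.2 one_ne_zero)]
  simp only [mul_add, add_mul, mul_sub, sub_mul, one_mul, mul_one, smul_mul_assoc, mul_smul_comm, h,
    h', mul_assoc, h1, h2, a1, a2, a3, a4, smul_zero, mul_zero, smul_add, smul_sub]
  match_scalars <;> field_simp <;> ring

theorem h_mul {E E' : A} (h : E * E = 0) (h' : E' * E' = 0) (h1 : E * (E' * E) = E)
    (h2 : E' * (E * E') = E') (c d c' d' : K) :
    (1 - E * E' - E' * E + c • (E * E') + c' • (E' * E)) *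
      (1 - E * E' - E' * E + d • (E * E') + d' • (E' * E)) =
      1 - E * E' - E' * E + (c * d) • (E * E') + (c' * d') • (E' * E) := by
  have a1 : ∀ x, E * (E * x) = 0 := fun x => by rw [← mul_assoc, h, zero_mul]
  have a2 : ∀ x, E' * (E' * x) = 0 := fun x => by rw [← mul_assoc, h', zero_mul]
  have a3 : ∀ x, E * (E' * (E * x)) = E * x := fun x => by
    rw [← mul_assoc E', ← mul_assoc E, h1]
  have a4 : ∀ x, E' * (E * (E' * x)) = E' * x := fun x => by
    rw [← mul_assoc E, ← mul_assoc E', h2]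
  simp only [mul_add, add_mul, mul_sub, sub_mul, one_mul, mul_one, smul_mul_assoc, mul_smul_comm,
    mul_assoc, a1, a2, a3, a4, smul_zero, mul_zero, smul_add, smul_sub]
  module
end Alg

variable {F : Type*} [Field F]

variable (F) in
/-- the root vectors -/
def Em (r : ℕ) : Matrix I27 I27 F :=
  Matrix.of fun b a => if a = dec (sr r (enc b)) then (sg r (enc b) : F) else 0

theorem Em_mulVec (r : ℕ) (v : I27 → F) {n : ℕ} (hn : n < 27) :
    (Em F r *ᵥ v) (dec n) = sg r n * v (dec (sr r n)) := by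
  simp only [mulVec, dotProduct, Em, of_apply, enc_dec n hn, ite_mul, zero_mul, sum_ite_eq',
    mem_univ, if_true]

theorem mat_ext {A B : Matrix I27 I27 F}
    (h : ∀ v n, n < 27 → (A *ᵥ v) (dec n) = (B *ᵥ v) (dec n)) : A = B := by
  ext a b
  have := h (Pi.single b 1) (enc a) (enc_lt a)
  simpa [dec_enc] using this

theorem chk_sr : allLt (fun r => allLt (fun b => band (Nat.ble (sr r b) 26)
    (decide (sg r b * sg r (sr r b) = 0))) 27) 72 = true := by decide +kernel
theorem sr_lt {r b : ℕ} (hr : r < 72) (hb : b < 27) : sr r b < 27 :=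
  Nat.lt_succ_of_le (Nat.le_of_ble_eq_true
    ((band_eq_true _ _).1 ((allLt_iff _ _).1 ((allLt_iff _ _).1 chk_sr r hr) b hb)).1)

theorem mul_mulVec {r s : ℕ} (hr : r < 72) (v : I27 → F) {n : ℕ} (hn : n < 27) :
    ((Em F r * Em F s) *ᵥ v) (dec n) = (sg r n * sg s (sr r n) : ℤ) * v (dec (sr s (sr r n))) := by
  rw [← mulVec_mulVec, Em_mulVec _ _ hn, Em_mulVec _ _ (sr_lt hr hn), Int.cast_mul, mul_assoc]

/-- the product of two root vectors vanishes -/
noncomputable def z2 (r s : ℕ) : Bool := allLt (fun b => decide (sg r b * sg s (sr r b) = 0)) 27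

theorem mul_eq_zero_of {r s : ℕ} (hr : r < 72) (h : z2 r s = true) : Em F r * Em F s = 0 :=
  mat_ext fun v n hn => by
    rw [mul_mulVec hr v hn, of_decide_eq_true ((allLt_iff _ _).1 h n hn)]
    simp

theorem Em_sq {r : ℕ} (hr : r < 72) : Em F r * Em F r = 0 :=
  mul_eq_zero_of hr ((allLt_iff _ _).2 fun b hb =>
    ((band_eq_true _ _).1 ((allLt_iff _ _).1 ((allLt_iff _ _).1 chk_sr r hr) b hb)).2)

theorem chk_neg : allLt (fun r => force (chevE6.neg r) fun s => band (Nat.ble s 71)
    (band (Nat.beq (chevE6.neg s) r) (allLt (fun b => bor (decide (sg r b = 0))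
      (band (decide (sg s (sr r b) * sg r (sr s (sr r b)) = 1))
        (Nat.beq (sr r (sr s (sr r b))) (sr r b)))) 27))) 72 = true := by decide +kernel

theorem neg_lt {r : ℕ} (hr : r < 72) : chevE6.neg r < 72 :=
  Nat.lt_succ_of_le (Nat.le_of_ble_eq_true ((band_eq_true _ _).1 ((allLt_iff _ _).1 chk_neg r hr)).1)
theorem neg_neg' {r : ℕ} (hr : r < 72) : chevE6.neg (chevE6.neg r) = r :=
  Nat.eq_of_beq_eq_true ((band_eq_true _ _).1
    ((band_eq_true _ _).1 ((allLt_iff _ _).1 chk_neg r hr)).2).1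

theorem Em_sl2 {r : ℕ} (hr : r < 72) :
    Em F r * (Em F (chevE6.neg r) * Em F r) = Em F r := mat_ext fun v n hn => by
  have h := (allLt_iff _ _).1 ((band_eq_true _ _).1
    ((band_eq_true _ _).1 ((allLt_iff _ _).1 chk_neg r hr)).2).2 n hn
  rw [← mulVec_mulVec, Em_mulVec _ _ hn, Em_mulVec _ _ hn, mul_mulVec (neg_lt hr) v (sr_lt hr hn)]
  rw [bor_eq_true, band_eq_true] at h
  rcases h with h | ⟨h1, h2⟩
  · rw [of_decide_eq_true h]; simp
  · rw [of_decide_eq_true h1, Nat.eq_of_beq_eq_true h2]; simp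

/-- one row of the commutator identity -/
noncomputable def rowOk (c1 c2 c3 : ℤ) (a1 a2 a3 : ℕ) : Bool :=
  bor (band (decide (c3 = 0)) (band (decide (c1 = c2)) (bor (decide (c1 = 0)) (Nat.beq a1 a2))))
    (bor (band (decide (c2 = 0)) (band (decide (c1 = -c3)) (Nat.beq a1 a3)))
      (band (decide (c1 = 0)) (band (decide (c2 = c3)) (Nat.beq a2 a3))))

theorem rowOk_spec {c1 c2 c3 : ℤ} {a1 a2 a3 : ℕ} (h : rowOk c1 c2 c3 a1 a2 a3 = true) (y : ℕ → F) :
    (c1 : F) * y a1 = c2 * y a2 - c3 * y a3 := by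
  simp only [rowOk, bor_eq_true, band_eq_true, decide_eq_true_eq, Nat.beq_eq] at h
  rcases h with ⟨rfl, rfl, rfl | rfl⟩ | ⟨rfl, rfl, rfl⟩ | ⟨rfl, rfl, rfl⟩ <;> simp

noncomputable def commOk (r s k : ℕ) (N : ℤ) : Bool :=
  allLt (fun b => force (sr s b) fun b1 => force (sr r b) fun b2 =>
    rowOk (sg s b * sg r b1) (sg r b * sg s b2) (N * sg k b) (sr r b1) (sr s b2) (sr k b)) 27

theorem commOk_spec {r s k : ℕ} {N : ℤ} (hr : r < 72) (hs : s < 72) (h : commOk r s k N = true) :
    Em F s * Em F r = Em F r * Em F s - (N : F) • Em F k := mat_ext fun v n hn => by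
  have h1 := rowOk_spec ((allLt_iff _ _).1 h n hn) fun m => v (dec m)
  rw [sub_mulVec, smul_mulVec, Pi.sub_apply, Pi.smul_apply, mul_mulVec hs v hn, mul_mulVec hr v hn,
    Em_mulVec _ _ hn, h1, smul_eq_mul, Int.cast_mul N, mul_assoc]

noncomputable def termsOk (r s : ℕ) : List (ℕ × ℤ × ℕ × ℕ) → Bool
  | [] => commOk r s 0 0
  | [(k, N, i, j)] => force k fun k => band (band (Nat.ble k 71) (band (Nat.beq i 1) (Nat.beq j 1)))
      (band (commOk r s k N) (band (z2 r k) (z2 s k)))
  | _ => false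

noncomputable def pairOk (r : ℕ) : Bool := force (chevE6.neg r) fun r' =>
  allLt (fun s => bor (Nat.beq s r) (bor (Nat.beq s r') (termsOk r s (chevE6.commTerms r s)))) 72

theorem chk_p0 : allLt pairOk 12 = true := by decide +kernel
theorem chk_p1 : allLt (fun i => pairOk (12 + i)) 12 = true := by decide +kernel
theorem chk_p2 : allLt (fun i => pairOk (24 + i)) 12 = true := by decide +kernel
theorem chk_p3 : allLt (fun i => pairOk (36 + i)) 12 = true := by decide +kernel
theorem chk_p4 : allLt (fun i => pairOk (48 + i)) 12 = true := by decide +kernel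
theorem chk_p5 : allLt (fun i => pairOk (60 + i)) 12 = true := by decide +kernel

theorem pair_ok {r : ℕ} (hr : r < 72) : pairOk r = true := by
  have a := (allLt_iff _ _).1 chk_p0
  have b := (allLt_iff _ _).1 chk_p1
  have c := (allLt_iff _ _).1 chk_p2
  have d := (allLt_iff _ _).1 chk_p3
  have e := (allLt_iff _ _).1 chk_p4
  have f := (allLt_iff _ _).1 chk_p5
  by_cases h1 : r < 12
  · exact a r h1
  by_cases h2 : r < 24
  · simpa [show 12 + (r - 12) = r by omega] using b (r - 12) (by omega)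
  by_cases h3 : r < 36
  · simpa [show 24 + (r - 24) = r by omega] using c (r - 24) (by omega)
  by_cases h4 : r < 48
  · simpa [show 36 + (r - 36) = r by omega] using d (r - 36) (by omega)
  by_cases h5 : r < 60
  · simpa [show 48 + (r - 48) = r by omega] using e (r - 48) (by omega)
  · simpa [show 60 + (r - 60) = r by omega] using f (r - 60) (by omega)

variable (F) in
/-- the root elements -/
def xu (r : ℕ) (t : F) : GL I27 F :=
  if h : r < 72 then
    ⟨1 + t • Em F r, 1 + (-t) • Em F r,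
      by rw [one_add_mul (Em_sq h), add_neg_cancel, zero_smul, add_zero],
      by rw [one_add_mul (Em_sq h), neg_add_cancel, zero_smul, add_zero]⟩
  else 1

theorem coe_xu {r : ℕ} (h : r < 72) (t : F) : (xu F r t : Matrix I27 I27 F) = 1 + t • Em F r := by
  rw [xu, dif_pos h]

theorem xu_mulVec {r : ℕ} (h : r < 72) (t : F) (v : I27 → F) {n : ℕ} (hn : n < 27) :
    ((xu F r t : Matrix I27 I27 F) *ᵥ v) (dec n) = v (dec n) + t * (sg r n * v (dec (sr r n))) := by
  rw [coe_xu h, add_mulVec, one_mulVec, smul_mulVec, Pi.add_apply, Pi.smul_apply, Em_mulVec _ _ hn,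
    smul_eq_mul]

theorem nroots_eq : chevE6.nroots = 72 := rfl

variable (F) in
/-- the relations (R1), (R2) -/
def stRel : H38.StRel chevE6 F (GL I27 F) where
  x := xu F
  x_add r hr a b := Units.ext (by
    rw [Units.val_mul, coe_xu hr, coe_xu hr, coe_xu hr, one_add_mul (Em_sq hr)])
  comm r hr s hs h1 h2 t u := by
    have h0 := pair_ok hr
    rw [pairOk, force_eq, allLt_iff] at h0
    have h := h0 s hs
    simp only [bor_eq_true, Nat.beq_eq, h1, h2, false_or] at h
    rw [ChevalleyDatum.commWord]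
    generalize chevE6.commTerms r s = L at h
    match L, h with
    | [], h =>
      have h3 := commOk_spec (F := F) hr hs h
      rw [Int.cast_zero, zero_smul, sub_zero] at h3
      refine Units.ext ?_
      simp only [List.map_nil, List.prod_nil, mul_one, Units.val_mul, coe_xu hr, coe_xu hs]
      exact comm0 h3 t u
    | [(k, N, i, j)], h =>
      simp only [termsOk, force_eq, band_eq_true, Nat.beq_eq, Nat.ble_eq] at h
      obtain ⟨⟨hk, rfl, rfl⟩, h3, h4, h5⟩ := h
      have hk' : k < 72 := Nat.lt_succ_of_le hk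
      refine Units.ext ?_
      simp only [List.map_cons, List.map_nil, List.prod_cons, List.prod_nil, mul_one, Units.val_mul,
        coe_xu hr, coe_xu hs, coe_xu hk']
      exact comm1 (commOk_spec hr hs h3) (mul_eq_zero_of hr h4) (mul_eq_zero_of hs h5) t u

theorem stRel_R3 (R : H38.RootSys chevE6) : ((stRel F).toPre R).R3 := by
  intro r c d hc hd
  have hr : (r : ℕ) < 72 := r.2
  have h2 := Em_sl2 (F := F) (neg_lt hr)
  rw [neg_neg' hr] at h2
  have key : ∀ c : F, c ≠ 0 → ((((stRel F).toPre R).h r c : GL I27 F) : Matrix I27 I27 F) =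
      1 - Em F r * Em F (chevE6.neg r) - Em F (chevE6.neg r) * Em F r +
        c • (Em F r * Em F (chevE6.neg r)) + c⁻¹ • (Em F (chevE6.neg r) * Em F r) := fun c hc => by
    rw [H38.StRel.toPre_h, ← h_eq (Em_sq hr) (Em_sq (neg_lt hr)) (Em_sl2 hr) h2 hc]
    simp only [ChevalleyDatum.hWord, ChevalleyDatum.nWord, List.cons_append, List.nil_append,
      List.map_cons, List.map_nil, List.prod_cons, List.prod_nil, mul_one, Units.val_mul, stRel,
      coe_xu hr, coe_xu (neg_lt hr), mul_assoc]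
  refine Units.ext ?_
  rw [Units.val_mul, key c hc, key d hd, key _ (mul_ne_zero hc hd),
    h_mul (Em_sq hr) (Em_sq (neg_lt hr)) (Em_sl2 hr) h2, mul_inv]

theorem xu_mem (r : ℕ) (t : F) : xu F r t ∈ E6univ F := by
  by_cases hr : r < 72
  · intro v
    rw [cubicT_eq, cubicT_eq, ← tp_root r hr (fun n => v (dec n)) t]
    simp only [tp]
    rw [Units.coeHom_apply]
    simp only [xu_mulVec hr t v, Nat.reduceLT, Nat.ofNat_pos, Nat.one_lt_ofNat]
  · rw [xu, dif_neg hr]; exact one_mem _

end H30.E6
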