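import Mathlib
import Cfsg.Agent.Lib.E6Cub.Root
/-! The isometry group of the cubic form is generated by the root elements -/
set_option autoImplicit false
set_option maxRecDepth 100000
namespace H30.E6
open Cfsg.Lie Finset Matrix H54

variable {F : Type*} [Field F]

/-- coordinates -/
def co (v : I27 → F) (n : ℕ) : F := v (dec n)
variable (F) in
/-- basis vectors -/
def eb (m : ℕ) : I27 → F := Pi.single (dec m) 1

theorem co_eb {m n : ℕ} (hm : m < 27) (hn : n < 27) : co (eb F m) n = if n = m then 1 else 0 := by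
  by_cases h : n = m
  · rw [if_pos h, h, co, eb, Pi.single_eq_same]
  · rw [if_neg h, co, eb, Pi.single_eq_of_ne fun e => h (dec_inj hn hm e)]

theorem vec_ext {v w : I27 → F} (h : ∀ n, n < 27 → co v n = co w n) : v = w := funext fun a => by
  have := h (enc a) (enc_lt a)
  rwa [co, co, dec_enc] at this

theorem cast_ne {a : ℤ} (h : a * a = 1) : (a : F) ≠ 0 := fun e => by
  have : ((a * a : ℤ) : F) = 1 := by rw [h, Int.cast_one]
  rw [Int.cast_mul, e, zero_mul] at this
  exact zero_ne_one this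

theorem chk_cf : allLt (fun a => allLt (fun b => band (Nat.ble (th a b) 26)
    (bor (decide (cf a b = 0)) (band (decide (cf a b * cf a b = 1)) (allLt (fun b' =>
      bor (Nat.beq b' b) (bor (decide (cf a b' = 0)) (decide (th a b ≠ th a b')))) 27)))) 27) 27 = true := by
  decide +kernel
theorem th_lt {a b : ℕ} (ha : a < 27) (hb : b < 27) : th a b < 27 :=
  Nat.lt_succ_of_le (Nat.le_of_ble_eq_true
    ((band_eq_true _ _).1 ((allLt_iff _ _).1 ((allLt_iff _ _).1 chk_cf a ha) b hb)).1)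
theorem cf_spec {a b : ℕ} (ha : a < 27) (hb : b < 27) (h : cf a b ≠ 0) : (cf a b : F) ≠ 0 ∧
    ∀ b', b' < 27 → b' ≠ b → cf a b' = 0 ∨ th a b ≠ th a b' := by
  have h1 := ((band_eq_true _ _).1 ((allLt_iff _ _).1 ((allLt_iff _ _).1 chk_cf a ha) b hb)).2
  simp only [bor_eq_true, band_eq_true, decide_eq_true_eq, allLt_iff, Nat.beq_eq, h, false_or] at h1
  exact ⟨cast_ne h1.1, fun b' hb' hne => (h1.2 b' hb').resolve_left hne⟩
theorem chk_sg : allLt (fun r => allLt (fun b => bor (decide (sg r b = 0))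
    (decide (sg r b * sg r b = 1))) 27) 72 = true := by decide +kernel
theorem sg_ne {r b : ℕ} (hr : r < 72) (hb : b < 27) (h : sg r b ≠ 0) : (sg r b : F) ≠ 0 := by
  have h1 := (allLt_iff _ _).1 ((allLt_iff _ _).1 chk_sg r hr) b hb
  simp only [bor_eq_true, decide_eq_true_eq, h, false_or] at h1
  exact cast_ne h1

theorem f3_left {s : ℕ} (hs : s < 27) (y z : ℕ → F) :
    f3 (co (eb F s)) y z = ∑ b ∈ range 27, (cf s b : F) * y b * z (th s b) := by
  rw [f3, sum_eq_single s]
  · simp only [co_eb hs hs, if_true, mul_one]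
  · intro a ha hne
    simp only [co_eb hs (mem_range.1 ha), if_neg hne, mul_zero, zero_mul, sum_const_zero]
  · exact fun h => absurd (mem_range.2 hs) h

theorem f3_two {s t : ℕ} (hs : s < 27) (ht : t < 27) (z : ℕ → F) :
    f3 (co (eb F s)) (co (eb F t)) z = cf s t * z (th s t) := by
  rw [f3_left hs, sum_eq_single t]
  · simp only [co_eb ht ht, if_true, mul_one]
  · intro a ha hne
    simp only [co_eb ht (mem_range.1 ha), if_neg hne, mul_zero, zero_mul]
  · exact fun h => absurd (mem_range.2 ht) h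

theorem f3_third {s b : ℕ} (hs : s < 27) (hb : b < 27) (h : cf s b ≠ 0) (y : ℕ → F) :
    f3 (co (eb F s)) y (co (eb F (th s b))) = cf s b * y b := by
  rw [f3_left hs, sum_eq_single b]
  · simp only [co_eb (th_lt hs hb) (th_lt hs hb), if_true, mul_one]
  · intro a ha hne
    rcases (cf_spec (F := F) hs hb h).2 a (mem_range.1 ha) hne with e | e
    · simp only [e, Int.cast_zero, zero_mul]
    · simp only [co_eb (th_lt hs hb) (th_lt hs (mem_range.1 ha)), if_neg e.symm, mul_zero]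
  · exact fun h => absurd (mem_range.2 hb) h

theorem lq_basis {m : ℕ} (hm : m < 27) (x : ℕ → F) : lq (co (eb F m)) x = 0 := by
  refine sum_eq_zero fun a ha => sum_eq_zero fun b hb => ?_
  rw [co_eb hm (mem_range.1 hb), co_eb hm (th_lt (mem_range.1 ha) (mem_range.1 hb))]
  by_cases h1 : b = m
  · by_cases h2 : th a b = m
    · rw [cl, if_neg (by omega), Int.cast_zero, zero_mul, zero_mul, zero_mul]
    · rw [if_neg h2, mul_zero]
  · rw [if_neg h1, mul_zero, zero_mul]

theorem lq_at {a : ℕ} (ha : a < 27) (y : ℕ → F) :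
    lq y (co (eb F a)) = ∑ b ∈ range 27, (cl a b : F) * y b * y (th a b) := by
  rw [lq, sum_eq_single a]
  · simp only [co_eb ha ha, if_true, mul_one]
  · intro s hs hne
    simp only [co_eb ha (mem_range.1 hs), if_neg hne, mul_zero, zero_mul, sum_const_zero]
  · exact fun h => absurd (mem_range.2 ha) h

theorem chk_sing : allLt (fun m => allLt (fun c => bor (decide (cf m c = 0))
    (force (th m c) fun a => band (Nat.beq (th a (min m c)) (max m c))
      (band (decide (cl a (min m c) * cl a (min m c) = 1)) (allLt (fun b => bor (Nat.beq b (min m c))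
        (bor (decide (cl a b = 0)) (band (decide (cf m b = 0)) (decide (b ≠ m))))) 27)))) 27) 27 = true := by
  decide +kernel

theorem sing_eq {m : ℕ} (hm : m < 27) {v : I27 → F} (hs : ∀ w, lq (co v) (co w) = 0)
    (h1 : co v m = 1) (h0 : ∀ b, b < 27 → b ≠ m → cf m b = 0 → co v b = 0) : v = eb F m := by
  refine vec_ext fun c hc => ?_
  rw [co_eb hm hc]
  by_cases e : c = m
  · rw [if_pos e, e, h1]
  rw [if_neg e]
  by_cases h : cf m c = 0
  · exact h0 c hc e h
  have k := (allLt_iff _ _).1 ((allLt_iff _ _).1 chk_sing m hm) c hc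
  simp only [bor_eq_true, band_eq_true, decide_eq_true_eq, allLt_iff, Nat.beq_eq, h, false_or,
    force_eq] at k
  obtain ⟨k1, k2, k3⟩ := k
  have h2 := hs (eb F (th m c))
  rw [lq_at (th_lt hm hc), sum_eq_single (min m c), k1, mul_assoc] at h2
  · have h3 := (mul_eq_zero.1 h2).resolve_left (cast_ne k2)
    rcases le_total m c with l | l
    · rwa [min_eq_left l, max_eq_right l, h1, one_mul] at h3
    · rwa [min_eq_right l, max_eq_left l, h1, mul_one] at h3
  · intro b hb hne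
    rcases (k3 b (mem_range.1 hb)).resolve_left hne with k | k
    · rw [k, Int.cast_zero, zero_mul, zero_mul]
    · rw [h0 b (mem_range.1 hb) k.2 k.1, mul_zero, zero_mul]
  · exact fun h => absurd (mem_range.2 (lt_of_le_of_lt (min_le_left _ _) hm)) h

section Inv
variable (hF : ∃ a : F, a ≠ 0 ∧ a ≠ 1) {g : GL I27 F} (hg : g ∈ E6univ F)
include hg

theorem inv_tp (v : I27 → F) : tp (co (g.val *ᵥ v)) = tp (co v) := by
  have h := hg v
  rwa [cubicT_eq, cubicT_eq] at h

include hF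
theorem inv_lq (v w : I27 → F) : lq (co (g.val *ᵥ v)) (co (g.val *ᵥ w)) = lq (co v) (co w) := by
  have key : ∀ t : F, t * lq (co (g.val *ᵥ v)) (co (g.val *ᵥ w)) +
      t ^ 2 * lq (co (g.val *ᵥ w)) (co (g.val *ᵥ v)) =
      t * lq (co v) (co w) + t ^ 2 * lq (co w) (co v) := fun t => by
    have h := inv_tp hg (v + t • w)
    rw [mulVec_add, mulVec_smul] at h
    have h1 := tp_add (co (g.val *ᵥ v)) (co (g.val *ᵥ w)) t
    have h2 := tp_add (co v) (co w) t
    rw [inv_tp hg, inv_tp hg] at h1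
    have h3 : tp (fun n => co (g.val *ᵥ v) n + t * co (g.val *ᵥ w) n) =
      tp (fun n => co v n + t * co w n) := h
    linear_combination h3 - h1 + h2
  obtain ⟨a, h0, h1⟩ := hF
  have h : (a * (1 - a)) * (lq (co (g.val *ᵥ v)) (co (g.val *ᵥ w)) - lq (co v) (co w)) = 0 := by
    linear_combination key a - a ^ 2 * key 1
  exact sub_eq_zero.1 ((mul_eq_zero.1 h).resolve_left (mul_ne_zero h0 (sub_ne_zero.2 h1.symm)))

theorem inv_f3 (u v w : I27 → F) :
    f3 (co (g.val *ᵥ u)) (co (g.val *ᵥ v)) (co (g.val *ᵥ w)) = f3 (co u) (co v) (co w) := by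
  have h := inv_lq hF hg (u + v) w
  rw [mulVec_add] at h
  have h1 := lq_add (co (g.val *ᵥ u)) (co (g.val *ᵥ v)) (co (g.val *ᵥ w))
  have h2 := lq_add (co u) (co v) (co w)
  rw [inv_lq hF hg, inv_lq hF hg] at h1
  have h3 : lq (fun n => co (g.val *ᵥ u) n + co (g.val *ᵥ v) n) (co (g.val *ᵥ w)) =
    lq (fun n => co u n + co v n) (co w) := h
  linear_combination h3 - h1 + h2
end Inv

theorem mul_inv_vec (g : GL I27 F) (w : I27 → F) : g.val *ᵥ ((g⁻¹).val *ᵥ w) = w := by
  rw [mulVec_mulVec, ← Units.val_mul, mul_inv_cancel, Units.val_one, one_mulVec]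

variable (F) in
/-- the group generated by the root elements -/
def G0 : Subgroup (GL I27 F) := Subgroup.closure {g | ∃ r t, r < 72 ∧ g = xu F r t}

/-- `g` is an isometry fixing the basis vectors of `S` -/
def Fx (S : List ℕ) (g : GL I27 F) : Prop := g ∈ E6univ F ∧ ∀ s ∈ S, g.val *ᵥ eb F s = eb F s
/-- the coordinates of the image of a basis vector -/
def im (g : GL I27 F) (m : ℕ) : ℕ → F := co (g.val *ᵥ eb F m)

noncomputable def memL (b : ℕ) (L : List ℕ) : Bool := anyL (fun s => Nat.beq s b) L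
theorem memL_iff (b : ℕ) (L : List ℕ) : memL b L = true ↔ b ∈ L := by
  simp only [memL, anyL_iff, Nat.beq_eq, exists_eq_right]

noncomputable def fixes (r : ℕ) (S : List ℕ) : Bool :=
  band (Nat.ble r 71) (allLt (fun b => bor (decide (sg r b = 0))
    (force (sr r b) fun a => allL (fun s => decide (s ≠ a)) S)) 27)

theorem fixes_lt {r : ℕ} {S : List ℕ} (h : fixes r S = true) : r < 72 :=
  Nat.lt_succ_of_le (Nat.le_of_ble_eq_true ((band_eq_true _ _).1 h).1)

theorem co_xu {r : ℕ} (h : r < 72) (t : F) (v : I27 → F) {n : ℕ} (hn : n < 27) :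
    co ((xu F r t).val *ᵥ v) n = co v n + t * (sg r n * co v (sr r n)) := xu_mulVec h t v hn

theorem im_mul {r : ℕ} (h : r < 72) (t : F) (g : GL I27 F) (m : ℕ) {n : ℕ} (hn : n < 27) :
    im (xu F r t * g) m n = im g m n + t * (sg r n * im g m (sr r n)) := by
  rw [im, Units.val_mul, ← mulVec_mulVec, co_xu h t _ hn]; rfl

variable {S : List ℕ} (hS : ∀ s ∈ S, s < 27)

include hS in
theorem Fx.mul {r : ℕ} (h : fixes r S = true) (t : F) {g : GL I27 F} (hg : Fx S g) :
    Fx S (xu F r t * g) := by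
  refine ⟨mul_mem (xu_mem r t) hg.1, fun s hs => ?_⟩
  rw [Units.val_mul, ← mulVec_mulVec, hg.2 s hs]
  refine vec_ext fun n hn => ?_
  have h1 := (allLt_iff _ _).1 ((band_eq_true _ _).1 h).2 n hn
  simp only [bor_eq_true, decide_eq_true_eq, force_eq, allL_iff] at h1
  rw [co_xu (fixes_lt h) t _ hn]
  rcases h1 with h1 | h1
  · rw [h1, Int.cast_zero, zero_mul, mul_zero, add_zero]
  · rw [co_eb (hS s hs) (sr_lt (fixes_lt h) hn), if_neg (h1 s hs).symm, mul_zero, mul_zero, add_zero]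

theorem mem_of_mul {r : ℕ} (h : r < 72) (t : F) {g : GL I27 F} (hg : xu F r t * g ∈ G0 F) :
    g ∈ G0 F :=
  ((G0 F).mul_mem_cancel_left (Subgroup.subset_closure ⟨r, t, h, rfl⟩)).1 hg

noncomputable def zeroOk (S : List ℕ) (m b : ℕ) : Bool :=
  bor (anyL (fun s => band (decide (cf s m = 0)) (decide (cf s b ≠ 0))) S)
    (band (decide (b ≠ m)) (anyL (fun s => anyL (fun t =>
      band (Nat.beq (th s t) b) (decide (cf s t ≠ 0))) S) S))

variable (hF : ∃ a : F, a ≠ 0 ∧ a ≠ 1)
include hF hS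

theorem third_eq {g : GL I27 F} (hg : Fx S g) {s t : ℕ} (hs : s ∈ S) (ht : t ∈ S) (h : cf s t ≠ 0)
    (m : ℕ) : im g m (th s t) = co (eb F m) (th s t) := by
  have h1 := inv_f3 hF hg.1 (eb F s) (eb F t) (eb F m)
  rw [hg.2 s hs, hg.2 t ht, f3_two (hS s hs) (hS t ht), f3_two (hS s hs) (hS t ht)] at h1
  exact mul_left_cancel₀ (cf_spec (hS s hs) (hS t ht) h).1 h1

theorem zero_of {g : GL I27 F} (hg : Fx S g) {m b : ℕ} (hm : m < 27) (hb : b < 27)
    (h : zeroOk S m b = true) : im g m b = 0 := by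
  simp only [zeroOk, bor_eq_true, band_eq_true, anyL_iff, decide_eq_true_eq, Nat.beq_eq] at h
  rcases h with ⟨s, hs, h1, h2⟩ | ⟨h0, s, hs, t, ht, rfl, h2⟩
  · have h3 := inv_f3 hF hg.1 (eb F s) (eb F m) ((g⁻¹).val *ᵥ eb F (th s b))
    rw [mul_inv_vec, hg.2 s hs, f3_third (hS s hs) hb h2, f3_two (hS s hs) hm, h1, Int.cast_zero,
      zero_mul] at h3
    exact (mul_eq_zero.1 h3).resolve_left (cf_spec (hS s hs) hb h2).1
  · rw [third_eq hS hF hg hs ht h2, co_eb hm hb, if_neg h0]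

variable (F) in
/-- every isometry fixing the basis vectors of `S` lies in the group generated by the root elements -/
def Claim (S : List ℕ) : Prop := ∀ g : GL I27 F, Fx S g → g ∈ G0 F
variable (F) in
def KK (S : List ℕ) (m : ℕ) (D : List ℕ) : Prop :=
  ∀ g : GL I27 F, Fx S g → im g m m = 1 → (∀ b ∈ D, im g m b = 0) → g ∈ G0 F
variable (F) in
def Cn (S : List ℕ) (m b : ℕ) : Prop := ∀ g : GL I27 F, Fx S g → im g m b ≠ 0 → g ∈ G0 F

noncomputable def coverOk (S : List ℕ) (m : ℕ) (D : List ℕ) : Bool :=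
  allLt (fun b => bor (Nat.beq b m) (bor (decide (cf m b ≠ 0)) (bor (memL b D) (zeroOk S m b)))) 27

theorem kk_base {m : ℕ} (hm : m < 27) (hc : Claim F (m :: S)) {D : List ℕ}
    (h : coverOk S m D = true) : KK F S m D := fun g hg h1 h0 => by
  refine hc g ⟨hg.1, fun s hs => ?_⟩
  rcases List.mem_cons.1 hs with rfl | hs
  · refine sing_eq hm (fun w => ?_) h1 fun b hb hne h2 => ?_
    · have h3 := inv_lq hF hg.1 (eb F s) ((g⁻¹).val *ᵥ w)
      rwa [mul_inv_vec, lq_basis hm] at h3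
    · have h3 := (allLt_iff _ _).1 h b hb
      simp only [bor_eq_true, Nat.beq_eq, decide_eq_true_eq, hne, h2, ne_eq, not_true, false_or,
        memL_iff] at h3
      exact h3.elim (h0 b) (zero_of hS hF hg hm hb)
  · exact hg.2 s hs

omit hF

noncomputable def killOk (S : List ℕ) (m : ℕ) (L : List (ℕ × ℕ)) : Bool :=
  List.rec (motive := fun _ => Bool) true (fun u L ih => band (band (fixes u.2 S)
    (band (Nat.ble u.1 26) (band (Nat.beq (sr u.2 u.1) m) (band (decide (sg u.2 u.1 ≠ 0))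
      (band (decide (sg u.2 m = 0))
        (allL (fun w => band (Nat.ble w.1 26) (decide (sg u.2 w.1 = 0))) L)))))) ih) L

theorem kk_kill {m : ℕ} (hm : m < 27) : ∀ L : List (ℕ × ℕ), killOk S m L = true →
    KK F S m (L.map Prod.fst) → KK F S m []
  | [], _, h => h
  | (b, r) :: L, e, h => by
    have e' : band (band (fixes r S) (band (Nat.ble b 26) (band (Nat.beq (sr r b) m)
      (band (decide (sg r b ≠ 0)) (band (decide (sg r m = 0))
        (allL (fun w : ℕ × ℕ => band (Nat.ble w.1 26) (decide (sg r w.1 = 0))) L))))))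
        (killOk S m L) = true := e
    simp only [band_eq_true, Nat.ble_eq, Nat.beq_eq, decide_eq_true_eq, allL_iff] at e'
    obtain ⟨⟨e1, e2, e3, e4, e5, e6⟩, e7⟩ := e'
    have hr := fixes_lt e1
    have hb : b < 27 := Nat.lt_succ_of_le e2
    refine kk_kill hm L e7 fun g hg h1 h0 => ?_
    refine mem_of_mul hr (-im g m b / sg r b) (h _ (hg.mul hS e1 _) ?_ fun c hc => ?_)
    · rw [im_mul hr _ _ _ hm, e5, h1, Int.cast_zero, zero_mul, mul_zero, add_zero]
    · rcases List.mem_cons.1 hc with rfl | hc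
      · have := sg_ne (F := F) hr hb e4
        rw [im_mul hr _ _ _ hb, e3, h1]
        field_simp
        ring
      · obtain ⟨w, hw, rfl⟩ := List.mem_map.1 hc
        rw [im_mul hr _ _ _ (Nat.lt_succ_of_le (e6 w hw).1), (e6 w hw).2, h0 _ hc, Int.cast_zero,
          zero_mul, mul_zero, add_zero]

noncomputable def mvOk (S : List ℕ) (m : ℕ) (fin : List ℕ → Bool) (L : List (ℕ × ℕ × ℕ)) :
    List ℕ → Bool :=
  List.rec (motive := fun _ => List ℕ → Bool) fin (fun u _ ih kn => band (band (fixes u.2.2 S)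
    (band (Nat.ble u.2.1 26) (band (Nat.beq (sr u.2.2 u.2.1) u.1)
      (band (decide (sg u.2.2 u.2.1 ≠ 0)) (bor (Nat.beq u.2.1 m) (memL u.2.1 kn))))))
    (ih (u.1 :: kn))) L

theorem mv_sound {m : ℕ} (h1 : KK F S m []) {fin : List ℕ → Bool} :
    ∀ (L : List (ℕ × ℕ × ℕ)) (kn : List ℕ), (∀ b ∈ kn, Cn F S m b) → mvOk S m fin L kn = true →
      ∃ kn', (∀ b ∈ kn', Cn F S m b) ∧ fin kn' = true
  | [], kn, h, e => ⟨kn, h, e⟩
  | (b, c, r) :: L, kn, h, e => by
    have e' : band (band (fixes r S) (band (Nat.ble c 26) (band (Nat.beq (sr r c) b)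
      (band (decide (sg r c ≠ 0)) (bor (Nat.beq c m) (memL c kn))))))
        (mvOk S m fin L (b :: kn)) = true := e
    simp only [band_eq_true, bor_eq_true, Nat.ble_eq, Nat.beq_eq, decide_eq_true_eq, memL_iff] at e'
    obtain ⟨⟨e1, e2, e3, e4, e5⟩, e6⟩ := e'
    have hr := fixes_lt e1
    have hc : c < 27 := Nat.lt_succ_of_le e2
    refine mv_sound h1 L (b :: kn) (fun a ha => ?_) e6
    rcases List.mem_cons.1 ha with rfl | ha
    · intro g hg h0
      have k : im (xu F r ((1 - im g m c) / (sg r c * im g m a)) * g) m c = 1 := by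
        have := sg_ne (F := F) hr hc e4
        rw [im_mul hr _ _ _ hc, e3]
        field_simp
        ring
      refine mem_of_mul hr ((1 - im g m c) / (sg r c * im g m a)) ?_
      rcases e5 with rfl | e5
      · exact h1 _ (hg.mul hS e1 _) k fun _ h => absurd h List.not_mem_nil
      · exact h c e5 _ (hg.mul hS e1 _) (by rw [k]; exact one_ne_zero)
    · exact h a ha

noncomputable def finOk (S : List ℕ) (m s : ℕ) (kn : List ℕ) : Bool :=
  bor (allLt (fun b => bor (memL b kn) (zeroOk S m b)) 27)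
    (band (band (memL s S) (decide (cf s m ≠ 0)))
      (allLt (fun b => bor (memL b kn) (bor (decide (cf s b = 0)) (zeroOk S m b))) 27))

noncomputable def stepOk (S : List ℕ) (u : ℕ × List (ℕ × ℕ) × List (ℕ × ℕ × ℕ) × ℕ × ℕ) : Bool :=
  band (band (Nat.ble u.1 26) (band (killOk S u.1 u.2.1) (coverOk S u.1 (u.2.1.map Prod.fst))))
    (bor (band (band (memL u.2.2.2.1 S) (memL u.2.2.2.2 S))
        (band (decide (cf u.2.2.2.1 u.2.2.2.2 ≠ 0)) (Nat.beq (th u.2.2.2.1 u.2.2.2.2) u.1)))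
      (mvOk S u.1 (finOk S u.1 u.2.2.2.1) u.2.2.1 []))

include hF
theorem step_sound {u : ℕ × List (ℕ × ℕ) × List (ℕ × ℕ × ℕ) × ℕ × ℕ} (e : stepOk S u = true) :
    u.1 < 27 ∧ (Claim F (u.1 :: S) → Claim F S) := by
  obtain ⟨m, KL, ML, s, t⟩ := u
  simp only [stepOk, band_eq_true, bor_eq_true, Nat.ble_eq, Nat.beq_eq, decide_eq_true_eq,
    memL_iff] at e
  obtain ⟨⟨e1, e2, e3⟩, e4⟩ := e
  have hm : m < 27 := Nat.lt_succ_of_le e1
  refine ⟨hm, fun hc g hg => ?_⟩
  have h1 : KK F S m [] := kk_kill hS hm KL e2 (kk_base hS hF hm hc e3)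
  rcases e4 with ⟨⟨hs, ht⟩, h2, rfl⟩ | e4
  · refine h1 g hg ?_ fun _ h => absurd h List.not_mem_nil
    rw [third_eq hS hF hg hs ht h2, co_eb hm hm, if_pos rfl]
  obtain ⟨kn, hk, e5⟩ := mv_sound hS h1 ML [] (fun _ h => absurd h List.not_mem_nil) e4
  by_contra hn
  have hz : ∀ b ∈ kn, im g m b = 0 := fun b hb => by_contra fun h => hn (hk b hb g hg h)
  simp only [finOk, band_eq_true, bor_eq_true, decide_eq_true_eq, memL_iff, allLt_iff] at e5
  rcases e5 with e5 | ⟨⟨hs, h2⟩, e5⟩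
  · have h3 : g.val *ᵥ eb F m = 0 := vec_ext fun b hb =>
      (e5 b hb).elim (hz b) (zero_of hS hF hg hm hb)
    have h4 := mul_inv_vec g⁻¹ (eb F m)
    rw [inv_inv, h3, mulVec_zero] at h4
    have h5 := co_eb (F := F) hm hm
    rw [← h4, if_pos rfl] at h5
    exact zero_ne_one h5
  · have h3 := inv_f3 hF hg.1 (eb F s) (eb F m) (eb F (th s m))
    rw [hg.2 s hs, f3_two (hS s hs) hm, co_eb (th_lt (hS s hs) hm) (th_lt (hS s hs) hm), if_pos rfl,
      mul_one, f3_left (hS s hs), sum_eq_zero] at h3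
    · exact (cf_spec (hS s hs) hm h2).1 h3.symm
    · intro b hb
      rcases e5 b (mem_range.1 hb) with k | k | k
      · rw [show co (g.val *ᵥ eb F m) b = 0 from hz b k, mul_zero, zero_mul]
      · rw [k, Int.cast_zero, zero_mul, zero_mul]
      · rw [show co (g.val *ᵥ eb F m) b = 0 from zero_of hS hF hg hm (mem_range.1 hb) k, mul_zero,
          zero_mul]

omit hS
noncomputable def runOk (L : List (ℕ × List (ℕ × ℕ) × List (ℕ × ℕ × ℕ) × ℕ × ℕ)) : List ℕ → Bool :=
  List.rec (motive := fun _ => List ℕ → Bool) (fun S => allLt (fun b => memL b S) 27)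
    (fun u _ ih S => band (stepOk S u) (ih (u.1 :: S))) L

theorem run_sound : ∀ (L : List (ℕ × List (ℕ × ℕ) × List (ℕ × ℕ × ℕ) × ℕ × ℕ)) (S : List ℕ),
    (∀ s ∈ S, s < 27) → runOk L S = true → Claim F S
  | [], S, _, e => fun g hg => by
    have e' : allLt (fun b => memL b S) 27 = true := e
    have h : g = 1 := Units.ext (ext_of_mulVec_single fun a => by
      have := hg.2 (enc a) ((memL_iff _ _).1 ((allLt_iff _ _).1 e' _ (enc_lt a)))
      rw [eb, dec_enc] at this
      rw [this, Units.val_one, one_mulVec])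
    exact h ▸ one_mem _
  | u :: L, S, hS, e => by
    have e' : band (stepOk S u) (runOk L (u.1 :: S)) = true := e
    rw [band_eq_true] at e'
    obtain ⟨h1, h2⟩ := step_sound hS hF e'.1
    exact h2 (run_sound L _ (fun s hs => (List.mem_cons.1 hs).elim (fun h => h ▸ h1) (hS s)) e'.2)

omit hF in
theorem run_ok : runOk [(0, [(1, 15), (2, 14), (3, 25), (6, 70), (12, 39), (13, 40), (14, 41), (15, 43), (16, 44), (17, 45), (19, 55), (20, 10), (22, 54), (23, 9), (25, 53), (26, 8)], [(1, 0, 56), (2, 0, 57), (3, 0, 46), (4, 1, 46), (5, 2, 46), (6, 0, 1), (7, 1, 1), (8, 2, 1), (9, 1, 32), (10, 1, 31), (11, 1, 30), (12, 0, 32), (13, 0, 31), (14, 0, 30), (15, 0, 28), (16, 0, 27), (17, 0, 26), (18, 3, 16), (19, 0, 16), (20, 0, 61), (21, 3, 17), (22, 0, 17), (23, 0, 62), (24, 3, 18), (25, 0, 18), (26, 0, 63), (0, 1, 15)], 27, 0),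
  (4, [(1, 46), (3, 56), (5, 29), (7, 71), (9, 47), (10, 48), (11, 49), (15, 61), (16, 62), (17, 63), (18, 66), (20, 28), (21, 65), (23, 27), (24, 64), (26, 26)], [(5, 4, 42), (7, 4, 0), (8, 5, 0), (9, 4, 24), (10, 4, 23), (11, 4, 22), (18, 4, 5), (21, 4, 6), (24, 4, 7), (4, 5, 29)], 0, 0),
  (8, [(2, 1), (5, 0), (6, 57), (7, 42), (9, 5), (10, 6), (11, 7), (12, 16), (13, 17), (14, 18), (18, 24), (19, 32), (21, 23), (22, 31), (24, 22), (25, 30)], [], 4, 0),
  (1, [(15, 58), (16, 59), (17, 60), (20, 21), (23, 20), (26, 19)], [(15, 1, 13), (16, 1, 12), (17, 1, 11), (20, 1, 50), (23, 1, 51), (26, 1, 52), (1, 15, 58), (3, 15, 50)], 8, 0),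
  (3, [(15, 50), (16, 51), (17, 52), (20, 13), (23, 12), (26, 11)], [], 1, 8),
  (2, [(19, 69), (22, 68), (25, 67)], [(19, 2, 2), (22, 2, 3), (25, 2, 4), (2, 19, 69)], 3, 0),
  (6, [(12, 2), (13, 3), (14, 4)], [], 2, 4),
  (5, [], [], 6, 1),
  (7, [], [], 5, 0),
  (9, [(10, 37), (11, 38)], [(10, 9, 34), (11, 9, 33), (9, 10, 37)], 6, 0),
  (18, [(21, 34), (24, 33)], [], 9, 0),
  (12, [], [], 18, 1),
  (15, [], [], 18, 2),
  (19, [], [], 15, 5),
  (20, [], [], 15, 8),
  (10, [(11, 36)], [(11, 10, 35), (10, 11, 36)], 15, 0),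
  (14, [(13, 35)], [], 10, 15),
  (16, [], [], 14, 9),
  (11, [], [], 16, 12),
  (13, [], [], 11, 15),
  (17, [], [], 13, 9),
  (21, [], [], 13, 1),
  (22, [], [], 13, 4),
  (23, [], [], 13, 7),
  (24, [], [], 23, 19),
  (25, [], [], 23, 18),
  (26, [], [], 22, 18)] [] = true := by decide +kernel

theorem G0_eq : G0 F = E6univ F :=
  le_antisymm ((Subgroup.closure_le _).2 (by rintro _ ⟨r, t, _, rfl⟩; exact xu_mem r t))
    fun g hg => run_sound hF _ [] (fun _ h => absurd h List.not_mem_nil) run_ok g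
      ⟨hg, fun _ h => absurd h List.not_mem_nil⟩

end H30.E6
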